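/-
General counting lemmas for overgroups of local subgroups.
-/
import Cfsg.Agent.J4o.Loc
import Cfsg.Agent.BG.I01

set_option autoImplicit false
set_option maxRecDepth 100000
set_option linter.unusedSectionVars false

namespace CA.J4x

open CA.M24 CA.Fi CA.FG CA.BG CA.J4 CA.J4o Cfsg Subgroup

noncomputable section

variable {G : Type*} [Group G] [Finite G]

/-- a subgroup acting semiregularly on the non-trivial cosets gives a congruence for the index -/
theorem cong_TI {U N H : Subgroup G} (hU : U ≤ H) (hN : U ≤ N)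
    (h : ∀ g ∈ H, ∀ y ∈ U, y ≠ 1 → g⁻¹ * y * g ∈ N → g ∈ N) : N.relIndex H ≡ 1 [MOD Nat.card U] := by
  classical
  let M := N ⊓ H
  let α := {g : G // g ∈ H ∧ g ∉ N}
  letI : MulAction (U × M) α :=
    { smul := fun a g => ⟨a.1 * g.1 * (a.2 : G)⁻¹, H.mul_mem (H.mul_mem (hU a.1.2) g.2.1) (H.inv_mem a.2.2.2),
        fun e => g.2.2 (by
          have := N.mul_mem (N.mul_mem (N.inv_mem (hN a.1.2)) e) a.2.2.1
          simpa [mul_assoc] using this)⟩
      one_smul := fun g => Subtype.ext (show ((1 : U) : G) * g.1 * ((1 : M) : G)⁻¹ = g.1 by simp)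
      mul_smul := fun a b g => Subtype.ext (show ((a.1 * b.1 : U) : G) * g.1 * ((a.2 * b.2 : M) : G)⁻¹ =
        a.1 * (b.1 * g.1 * (b.2 : G)⁻¹) * (a.2 : G)⁻¹ by simp [mul_assoc]) }
  have fr : ∀ g : α, MulAction.stabilizer (U × M) g = ⊥ := fun g => (eq_bot_iff_forall _).2 fun a ha => by
    have e : (a.1 : G) * g.1 * (a.2 : G)⁻¹ = g.1 := congrArg Subtype.val ha
    have e2 : g.1⁻¹ * a.1 * g.1 = a.2 := by
      rw [mul_assoc, inv_mul_eq_iff_eq_mul, ← mul_inv_eq_iff_eq_mul]; exact e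
    have a1 : (a.1 : G) = 1 := by_contra fun n => g.2.2 (h _ g.2.1 _ a.1.2 n (e2 ▸ a.2.2.1))
    refine Prod.ext (Subtype.ext a1) (Subtype.ext ?_)
    rw [← e2, a1]; simp
  have c1 := Nat.card_congr (MulAction.selfEquivOrbitsQuotientProd fr)
  rw [Nat.card_prod, Nat.card_prod] at c1
  have c2 : Nat.card α + Nat.card M = Nat.card H := by
    rw [← Nat.card_sum]
    refine Nat.card_congr (Equiv.ofBijective (Sum.elim (fun g => ⟨g.1, g.2.1⟩) fun g => ⟨g.1, g.2.2⟩) ⟨?_, ?_⟩)
    · rintro (a | a) (b | b) e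
      · exact congrArg _ (Subtype.ext (congrArg (fun x : H => (x : G)) e))
      · exact absurd ((show a.1 = b.1 from congrArg Subtype.val e) ▸ b.2.1) a.2.2
      · exact absurd ((show a.1 = b.1 from congrArg Subtype.val e) ▸ a.2.1) b.2.2
      · exact congrArg _ (Subtype.ext (congrArg (fun x : H => (x : G)) e))
    · intro g
      by_cases e : g.1 ∈ N
      · exact ⟨.inr ⟨g.1, e, g.2⟩, rfl⟩
      · exact ⟨.inl ⟨g.1, g.2, e⟩, rfl⟩
  have c3 := card_inf_mul_relIndex N H
  have : N.relIndex H = 1 + Nat.card U * Nat.card (Quotient (MulAction.orbitRel (U × M) α)) :=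
    Nat.eq_of_mul_eq_mul_left (Nat.card_pos (α := M)) (by rw [c3, ← c2, c1]; ring)
  rw [this]
  exact (Nat.modEq_iff_dvd' (Nat.le_add_right _ _)).2 (by simp) |>.symm

/-- Burnside and Frattini: a Sylow subgroup central in its normaliser normalises a Sylow subgroup for every other prime -/
theorem bf {p r : ℕ} (hp : p.Prime) (hr : r.Prime) (hne : r ≠ p) {H S : Subgroup G} (sS : IsSylowOf p S H)
    (h : H ⊓ 𝒩(S) ≤ 𝒞(S)) : ∃ R, IsSylowOf r R H ∧ S ≤ 𝒩(R) := by
  have d := Burnside_normal_complement hp sS h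
  obtain ⟨R, hR⟩ := sylow_exists hr (pPrimeCoreOf p H)
  have f := frattini_arg hr d.normal hR
  have i : (pPrimeCoreOf p H).relIndex H = Nat.card S := d.complIn.relIndex_left
  obtain ⟨k, hk⟩ := (pGrp_iff_card hp).1 (IsSylowOf.pGrp sS)
  have sR : IsSylowOf r R H := sylow_mk (hR.le.trans d.left_le) (IsSylowOf.pGrp hR) (by
    rw [← relIndex_mul_relIndex _ _ _ hR.le d.left_le, i, hk]
    exact fun e => ((Nat.Prime.dvd_mul hr).1 e).elim (IsSylowOf.not_dvd_index hR hr) fun e =>
      hne ((Nat.prime_dvd_prime_iff_eq hr hp).1 (hr.dvd_of_dvd_pow e)))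
  obtain ⟨T, hT⟩ := sylow_exists hp (H ⊓ 𝒩(R))
  have j : (H ⊓ 𝒩(R)).relIndex H ∣ Nat.card (pPrimeCoreOf p H) := by
    conv_lhs => rw [← f]
    rw [f, ← congrArg (Subgroup.relIndex (H ⊓ 𝒩(R))) f,
      relIndex_sup_right' (.inr (inf_le_left.trans d.normal.2))]
    exact relIndex_dvd_card _ _
  have sT : IsSylowOf p T H := sylow_mk (hT.le.trans inf_le_left) (IsSylowOf.pGrp hT) (by
    rw [← relIndex_mul_relIndex _ _ _ hT.le inf_le_left]
    exact fun e => ((Nat.Prime.dvd_mul hp).1 e).elim (IsSylowOf.not_dvd_index hT hp) fun e =>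
      IsSylowOf.not_dvd_index sS hp (d.complIn.relIndex_right ▸ e.trans j))
  obtain ⟨x, hx, e⟩ := sylow_trans hp sT sS
  refine ⟨R :^ x, sR.conjg_of_mem hx, ?_⟩
  rw [e, ← conjg_norm]
  exact conjg_mono x (hT.le.trans inf_le_right)

/-- an involution fixes a large part of an elementary abelian 2-group it normalises -/
theorem card_le_sq {E : Subgroup G} {z : G} (hz : z * z = 1) (hn : z ∈ 𝒩(E)) (hc : IsMulCommutative E)
    (h2 : ∀ e ∈ E, e * e = 1) : Nat.card E ≤ Nat.card ↥(E ⊓ 𝒞[z]) * Nat.card ↥(E ⊓ 𝒞[z]) := by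
  have cm := abelian_iff_forall.1 hc
  have zi : z⁻¹ = z := inv_eq_of_mul_eq_one_right hz
  let f : E →* G := MonoidHom.mk' (fun e => e * (z * e * z⁻¹)) fun a b => by
    have := cm _ b.2 _ (conj_mem_of_mem_norm hn a.2)
    simp only [Subgroup.coe_mul]
    calc (a : G) * b * (z * (a * b) * z⁻¹) = a * (b * (z * a * z⁻¹)) * (z * b * z⁻¹) := by group
      _ = _ := by rw [this]; group
  have k : f.ker = (E ⊓ 𝒞[z]).subgroupOf E := by
    ext e
    simp only [MonoidHom.mem_ker, mem_subgroupOf, mem_inf, e.2, true_and, mem_centralizer_singleton_iff]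
    show (e : G) * (z * e * z⁻¹) = 1 ↔ _
    rw [mul_eq_one_iff_inv_eq, inv_eq_of_mul_eq_one_right (h2 _ e.2), eq_mul_inv_iff_mul_eq]
  have r : f.range ≤ E ⊓ 𝒞[z] := by
    rintro _ ⟨e, rfl⟩
    refine mem_inf.2 ⟨E.mul_mem e.2 (conj_mem_of_mem_norm hn e.2), mem_centralizer_singleton_iff.2 ?_⟩
    show (e : G) * (z * e * z⁻¹) * z = z * (e * (z * e * z⁻¹))
    rw [cm _ e.2 _ (conj_mem_of_mem_norm hn e.2)]
    calc z * e * z⁻¹ * e * z = z * (e * (z⁻¹ * e * z)) := by group
      _ = _ := by rw [← cm _ e.2 _ (conj_mem_of_mem_norm hn e.2), zi]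
  have c := card_eq_card_quotient_mul_card_subgroup f.ker
  rw [Nat.card_congr (QuotientGroup.quotientKerEquivRange f).toEquiv, k, card_subgroupOf inf_le_left] at c
  rw [c]
  exact Nat.mul_le_mul_right _ (card_le_of_le r)

/-- criterion for maximality through orders -/
theorem coatom_of {M : Subgroup G} (h1 : Nat.card M ≠ Nat.card G)
    (h : ∀ H, M ≤ H → Nat.card H = Nat.card M ∨ Nat.card H = Nat.card G) : IsCoatom M :=
  ⟨fun e => h1 (by rw [e, card_top]), fun H l => (h H l.le).elim (fun e => absurd e (card_lt_of_lt l).ne')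
    fun e => eq_top_of_card_eq H e⟩

theorem not_index_two [IsSimpleGroup G] (h2 : Nat.card G ≠ 2) {H : Subgroup G} : Nat.card H * 2 ≠ Nat.card G := fun e => by
  have i : H.index = 2 := Nat.eq_of_mul_eq_mul_left Nat.card_pos (H.card_mul_index.trans e.symm)
  rcases (normal_of_index_eq_two i).eq_bot_or_eq_top with f | f
  · rw [f, card_bot, one_mul] at e; exact h2 e.symm
  · rw [f, index_top] at i; omega

/-- all products of prime powers -/
def allD (l : List (ℕ × ℕ)) (f : ℕ → Bool) : ℕ → Bool :=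
  List.rec (motive := fun _ => ℕ → Bool) f (fun a _ ih acc => force acc fun c =>
    Nat.rec (motive := fun _ => Bool) (ih c) (fun i r => band r (ih (Nat.mul c (Nat.pow a.1 (Nat.succ i))))) a.2) l

theorem allD_spec {f : ℕ → Bool} : ∀ {l : List (ℕ × ℕ)} {c : ℕ}, (∀ a ∈ l, a.1.Prime) → allD l f c = true →
    ∀ n, n ∣ (l.map fun a => a.1 ^ a.2).prod → f (c * n) = true
  | [], c, _, h, n, e => by
    obtain rfl : n = 1 := by simpa using e
    rw [mul_one]; exact h
  | a :: l, c, hp, h, n, e => by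
    rw [List.map_cons, List.prod_cons] at e
    obtain ⟨x, y, hx, hy, rfl⟩ := (Nat.dvd_mul).1 e
    obtain ⟨i, hi, rfl⟩ := (Nat.dvd_prime_pow (hp a List.mem_cons_self)).1 hx
    rw [← mul_assoc]
    refine allD_spec (fun b hb => hp b (List.mem_cons_of_mem _ hb)) ?_ y hy
    have key : ∀ k, Nat.rec (motive := fun _ => Bool) (allD l f c)
        (fun i r => band r (allD l f (Nat.mul c (Nat.pow a.1 (Nat.succ i))))) k = true →
        ∀ i ≤ k, allD l f (c * a.1 ^ i) = true := by
      intro k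
      induction k with
      | zero => intro h i hi; obtain rfl : i = 0 := by omega
                rw [pow_zero, mul_one]; exact h
      | succ k ih =>
        intro h i hi
        obtain ⟨h1, h2⟩ := band_eq_true.1 h
        rcases hi.eq_or_lt with rfl | hi
        · exact h2
        · exact ih h1 i (by omega)
    exact key _ ((force_eq c fun c => Nat.rec (motive := fun _ => Bool) (allD l f c)
      (fun i r => band r (allD l f (Nat.mul c (Nat.pow a.1 (Nat.succ i))))) a.2).symm.trans h) i hi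

def FAC : List (ℕ × ℕ) := [(2, 21), (3, 3), (5, 1), (7, 1), (11, 3), (23, 1), (29, 1), (31, 1), (37, 1), (43, 1)]

theorem sieve {f : ℕ → Bool} (h : allD FAC f 1 = true) {n : ℕ} (e : n ∣ 86775571046077562880) : f n = true := by
  have := allD_spec (by simp only [FAC, List.forall_mem_cons, List.not_mem_nil, IsEmpty.forall_iff, implies_true]; norm_num)
    h n (e.trans (by decide +kernel))
  rwa [one_mul] at this

end

theorem realizeEqns_J4xGen : True := by
  have := @CA.J4x.allD.eq_1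
  have := @CA.J4x.allD.eq_def
  have := @CA.J4x.allD.congr_simp
  have := @CA.J4x.FAC.eq_1
  have := @CA.J4x.FAC.eq_def
  have := @CA.J4x.FAC.congr_simp
  trivial

end CA.J4x
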