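/-
Order restrictions for subgroups of a group of Janko-four type.
-/
import Cfsg.Agent.J4x.Gen
import Cfsg.Agent.J4o.Big

set_option autoImplicit false
set_option maxRecDepth 100000
set_option linter.unusedSectionVars false

namespace CA.J4x

open CA.M24 CA.Fi CA.FG CA.BG CA.J4 CA.J4o CA.J4.HM Cfsg Subgroup

noncomputable section

/-- the automiser order forced by Sylow's theorem -/
def ee (n p : ℕ) : ℕ := Nat.mod (Nat.div n p) p

def dv (a b : ℕ) : Bool := Nat.beq (Nat.mod b a) (nat_lit 0)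

@[simp] theorem dv_iff {a b : ℕ} : dv a b = true ↔ a ∣ b := by
  rw [dv, beq_iff, Nat.dvd_iff_mod_eq_zero]; rfl

def EP : List (ℕ × ℕ) := [(23, 22), (29, 28), (31, 10), (37, 12), (43, 14)]

def bigOK (n : ℕ) : Bool := allL (fun a => bimp (dv a.1 n) (force (ee n a.1) fun e =>
  band (dv e a.2) (dv (Nat.mul a.1 e) n))) EP

def D240 : List ℕ := [1, 2, 3, 4, 5, 6, 8, 10, 12, 15, 16, 20, 24, 30, 40, 48, 60, 80, 120, 240]

/-- the index of a subgroup of order `d` is one modulo `m` -/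
def cg (n d m : ℕ) : Bool := band (dv d n) (Nat.beq (Nat.mod (Nat.div n d) m) (nat_lit 1))

def ok11 (n : ℕ) : Bool := bimp (dv 1331 n) (anyL (fun d => cg n (Nat.mul 1331 d) 1331) D240)

variable {G : Type*} [Group G] [Finite G]

theorem cg_of {N H : Subgroup G} {m d : ℕ} (hm : 1 < m) (h : N.relIndex H ≡ 1 [MOD m]) (e : Nat.card ↥(N ⊓ H) = d) :
    cg (Nat.card H) d m = true := by
  have c := card_inf_mul_relIndex N H
  rw [e] at c
  refine band_eq_true.2 ⟨dv_iff.2 ⟨_, c.symm⟩, beq_iff.2 ?_⟩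
  show Nat.card H / d % m = 1
  rw [← c, Nat.mul_div_cancel_left _ (e ▸ Nat.card_pos), h, Nat.mod_eq_of_lt hm]

theorem cg_le {N H : Subgroup G} {m : ℕ} (hm : 1 < m) (h : N.relIndex H ≡ 1 [MOD m]) (e : N ≤ H) :
    cg (Nat.card H) (Nat.card N) m = true := cg_of hm h (by rw [inf_eq_left.2 e])

variable {X : HM G} [hF : Fact X.Fu]
include hF

theorem card_NP {p e : ℕ} (hp : (p, e) ∈ EP) {P : Subgroup G} (h : Nat.card P = p) :
    p ∈ BP ∧ 𝒞(P) = P ∧ Nat.card 𝒩(P) = p * e ∧ e < p := by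
  have a : p ∈ BP := (by decide : ∀ a ∈ EP, a.1 ∈ BP) _ hp
  obtain ⟨b, c⟩ := big (X := X) a h
  exact ⟨a, b, (by decide : ∀ a ∈ EP, ∀ b ∈ RES, b.1 = a.1 → b.2 = a.1 * a.2) _ hp _ c rfl,
    (by decide : ∀ a ∈ EP, a.2 < a.1) _ hp⟩

theorem card_NPH {p e : ℕ} (hp : (p, e) ∈ EP) {P H : Subgroup G} (h : Nat.card P = p) (l : P ≤ H) :
    Nat.card ↥(𝒩(P) ⊓ H) = p * ee (Nat.card H) p ∧ ee (Nat.card H) p ∣ e := by
  obtain ⟨a, -, c, d⟩ := card_NP (X := X) hp h
  have pp := (BP_spec p a).1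
  have s := sylow_count pp (syl_big (X := X) a h l)
  have f := card_inf_mul_relIndex 𝒩(P) H
  obtain ⟨m, k⟩ := h ▸ card_dvd_of_le (le_inf le_normalizer l : P ≤ 𝒩(P) ⊓ H)
  have i : m ∣ e := Nat.dvd_of_mul_dvd_mul_left pp.pos (by rw [← k, ← c]; exact card_dvd_of_le inf_le_left)
  have e0 : 0 < e := Nat.pos_of_mul_pos_left (a := p) (c ▸ Nat.card_pos)
  have : ee (Nat.card H) p = m := by
    show Nat.card H / p % p = m
    rw [← f, k, mul_assoc, Nat.mul_div_cancel_left _ pp.pos, Nat.mul_mod, s, Nat.mod_eq_of_lt pp.one_lt, mul_one,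
      Nat.mod_mod, Nat.mod_eq_of_lt ((Nat.le_of_dvd e0 i).trans_lt d)]
  rw [this]
  exact ⟨k, i⟩

variable (X) in
theorem bigOK_H (H : Subgroup G) : bigOK (Nat.card H) = true := by
  refine allL_eq_true.2 fun a ha => bimp_eq_true.2 fun h => ?_
  obtain ⟨P, l, c⟩ := exists_le_card_eq_prime (BP_spec _ ((by decide : ∀ a ∈ EP, a.1 ∈ BP) _ ha)).1 (dv_iff.1 h)
  obtain ⟨e, f⟩ := card_NPH (X := X) (e := a.2) ha c l
  rw [force_eq]
  exact band_eq_true.2 ⟨dv_iff.2 f, dv_iff.2 ((dvd_of_eq e.symm).trans (card_dvd_of_le inf_le_right))⟩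

variable (X) in
theorem ee_dvd {p e : ℕ} (hp : (p, e) ∈ EP) {M H : Subgroup G} (l : M ≤ H) (h : p ∣ Nat.card M) :
    ee (Nat.card M) p ∣ ee (Nat.card H) p := by
  have pp := (BP_spec _ ((by decide : ∀ a ∈ EP, a.1 ∈ BP) _ hp)).1
  obtain ⟨P, a, c⟩ := exists_le_card_eq_prime pp h
  refine Nat.dvd_of_mul_dvd_mul_left pp.pos ?_
  rw [← (card_NPH (X := X) hp c a).1, ← (card_NPH (X := X) hp c (a.trans l)).1]
  exact card_dvd_of_le (inf_le_inf_left _ l)

/-- Sylow 11-subgroups with the centraliser orders of all their elements -/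
structure W1 (X : HM G) (w u : G) (U : Subgroup G) : Prop where
  k : X.W11 w u U
  c : ∀ y ∈ U, y ∉ zpowers w → Nat.card 𝒞[y] = 242

theorem W1.conj {w u : G} {U : Subgroup G} (h : W1 X w u U) (g : G) : W1 X (g * w * g⁻¹) (g * u * g⁻¹) (U :^ g) :=
  ⟨h.k.conj g, fun y a b => by
    have := h.c _ (mem_conjg.1 a) fun e => b (by rw [← conjg_zpowers]; exact mem_conjg.2 e)
    rw [← this, ← card_conjg 𝒞[g⁻¹ * y * g] g, conjg_cent1, show g * (g⁻¹ * y * g) * g⁻¹ = y by group]⟩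

theorem W11.cz {w u y : G} {U : Subgroup G} (k : X.W11 w u U) (a : y ∈ zpowers w) (b : y ≠ 1) :
    Nat.card 𝒞[y] = 31944 := (card_cj (k.pow a b)).trans k.cC

variable (X) in
theorem exists_W1 : ∃ w u U, W1 X w u U := by
  obtain ⟨x, O, h⟩ := X.exists_X11
  obtain ⟨w, u, U, k, a⟩ := h.all
  exact ⟨w, u, U, k, fun y b c => (card_cj (a y b c)).trans h.card_C⟩

theorem W1.mem {w u y : G} {U : Subgroup G} (h : W1 X w u U) (a : y ∈ U) (b : Nat.card 𝒞[y] ≠ 242) : y ∈ zpowers w :=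
  by_contra fun e => b (h.c y a e)

theorem w1_of {w u : G} {U : Subgroup G} (k : X.W11 w u U) : W1 X w u U := by
  obtain ⟨w', u', U', h⟩ := exists_W1 X
  obtain ⟨g, -, rfl⟩ := sylow_trans p11 h.k.syl k.syl
  have h' := h.conj g
  have w1 : w ≠ 1 := fun e => by have := k.oz.ow; simp [e] at this
  have e := eq_zpowers_of_card_prime (by rw [Nat.card_zpowers, h'.k.oz.ow]; exact p11)
    (h'.mem k.oz.mem (by rw [k.cC]; norm_num)) w1
  exact ⟨k, fun y a b => h'.c y a (e ▸ b)⟩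

omit hF in
theorem W1.w1 {w u : G} {U : Subgroup G} (h : W1 X w u U) : w ≠ 1 := fun e => by
  have := h.k.oz.ow; simp [e] at this

omit hF in
theorem W1.czp {w u : G} {U : Subgroup G} (h : W1 X w u U) : Nat.card (zpowers w) = 11 :=
  (Nat.card_zpowers w).trans h.k.oz.ow

omit hF in
theorem W1.zp {w u y : G} {U : Subgroup G} (h : W1 X w u U) (a : y ∈ zpowers w) (b : y ≠ 1) : zpowers w = zpowers y :=
  eq_zpowers_of_card_prime (by rw [h.czp]; exact p11) a b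

theorem W1.comm {w u y v : G} {U : Subgroup G} (h : W1 X w u U) (a : y ∈ U) (b : y ∉ zpowers w) (c : v ∈ 𝒞[y])
    (o : orderOf v = 11) : v ∈ U := by
  have e := h.c y a b
  have pS : IsPGrp 11 (U ⊓ 𝒞[y]) := IsPiGrp.inf_left (IsSylowOf.pGrp h.k.syl) _
  obtain ⟨k, hk⟩ := (pGrp_iff_card p11).1 pS
  have l : zpowers w < U ⊓ 𝒞[y] := lt_of_le_of_ne (zpowers_le.2 ⟨h.k.oz.mem, mem_cent_singleton_comm.1 (h.k.oz.le a)⟩)
    fun f => b (f ▸ ⟨a, mem_cent_singleton_self y⟩)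
  have l2 := card_lt_of_lt l
  have d := card_mul_relIndex (inf_le_right : U ⊓ 𝒞[y] ≤ 𝒞[y])
  rw [h.czp, hk] at l2
  rw [hk, e] at d
  have k2 : k = 2 := by
    have : k < 3 := by
      by_contra n
      exact absurd ((pow_dvd_pow 11 (not_lt.1 n)).trans ⟨_, d.symm⟩) (by norm_num)
    interval_cases k <;> omega
  subst k2
  have i : (U ⊓ 𝒞[y]).relIndex 𝒞[y] = 2 := by omega
  have s : IsSylowOf 11 (U ⊓ 𝒞[y]) 𝒞[y] := sylow_mk inf_le_right pS (by rw [i]; norm_num)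
  have n := sylow_count p11 s
  have n2 : (𝒩(U ⊓ 𝒞[y])).relIndex 𝒞[y] ∣ 2 := i ▸ relIndex_dvd_of_le_left _ le_normalizer
  have n3 : (𝒩(U ⊓ 𝒞[y])).relIndex 𝒞[y] = 1 := by
    rcases (Nat.dvd_prime Nat.prime_two).1 n2 with f | f
    · exact f
    · rw [f] at n; exact absurd n (by decide)
  exact (s.mem_of_normal (relIndex_eq_one.1 n3) (piGrp_zpowers_iff.1
    (pGrp_of_card_eq p11 ((Nat.card_zpowers v).trans o))) c).1

theorem W1.ti {w u : G} {U : Subgroup G} (h : W1 X w u U) {g y : G} (a : y ∈ U) (y1 : y ≠ 1)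
    (b : g⁻¹ * y * g ∈ 𝒩(zpowers w)) : g ∈ 𝒩(zpowers w) := by
  have h' := h.conj g
  have c : y ∈ U :^ g := mem_conjg.2 ((h.k.syl.of_le le_normalizer le_top).mem_of_normal le_rfl
    ((IsPiGrp.conjg (IsSylowOf.pGrp h.k.syl) g⁻¹).piElt (by simpa using conj_mem_conjg g⁻¹ a)) (h.k.oz.norm b))
  have d : g * w * g⁻¹ ∈ U := by
    by_cases e : y ∈ zpowers w
    · have := h'.zp (h'.mem c (by rw [W11.cz h.k e y1]; norm_num)) y1
      exact zpowers_le.2 a (this ▸ mem_zpowers _)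
    · exact h.comm a e (mem_cent_singleton_comm.1 (h'.k.oz.le c)) h'.k.oz.ow
  have := h.zp (h.mem d (by rw [h'.k.cC]; norm_num)) h'.w1
  exact conjg_eq_self_iff.1 (by rw [conjg_zpowers, ← this])

theorem W1.cong {w u : G} {U H : Subgroup G} (h : W1 X w u U) (l : U ≤ H) :
    (𝒩(zpowers w)).relIndex H ≡ 1 [MOD 1331] :=
  h.k.card ▸ cong_TI l (h.k.oz.le.trans (cent_zpowers w ▸ cent_le_norm _)) fun _ _ _ a b c => h.ti a b c

theorem exists_W1_le {H P : Subgroup G} (h : 1331 ∣ Nat.card H) (l : P ≤ H) (hP : IsPGrp 11 P) :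
    ∃ w u U, W1 X w u U ∧ P ≤ U ∧ U ≤ H := by
  obtain ⟨w, u, U, k⟩ := exists_W1 X
  obtain ⟨S, s, a⟩ := sylow_superset p11 hP l
  obtain ⟨g, -, b⟩ := sylow_subJ p11 k.k.syl (IsSylowOf.pGrp s) le_top
  obtain ⟨L, c, d⟩ := exists_le_card_eq_pow p11 (k := 3) h
  have e := s.card_dvd (pGrp_of_card_eq_pow p11 d) c
  have f : S = U :^ g := eq_of_le_of_card_ge b (by
    rw [card_conjg, k.k.card]; exact Nat.le_of_dvd Nat.card_pos ((dvd_of_eq d.symm).trans e))
  exact ⟨_, _, _, k.conj g, f ▸ a, f ▸ s.le⟩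

variable (X) in
theorem ok11_H (H : Subgroup G) : ok11 (Nat.card H) = true := by
  refine bimp_eq_true.2 fun h => ?_
  obtain ⟨w, u, U, k, -, l⟩ := exists_W1_le (X := X) (dv_iff.1 h) bot_le (piGrp_bot _)
  have n : U ≤ 𝒩(zpowers w) := k.k.oz.le.trans (cent_zpowers w ▸ cent_le_norm _)
  obtain ⟨d, e⟩ := k.k.card ▸ card_dvd_of_le (le_inf n l)
  have f : d ∣ 240 := Nat.dvd_of_mul_dvd_mul_left (by norm_num : 0 < 1331) (by
    rw [← e]; exact (card_dvd_of_le inf_le_left).trans (dvd_of_eq k.k.cN))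
  exact anyL_eq_true.2 ⟨d, (by decide +kernel : ∀ d < 241, d ∣ 240 → d ∈ D240) d
    (Nat.lt_succ_of_le (Nat.le_of_dvd (by norm_num) f)) f, cg_of (by norm_num) (k.cong l) e⟩

variable [IsSimpleGroup G]

variable (X) in
theorem two (H : Subgroup G) : Nat.card H ≠ 43387785523038781440 := fun e =>
  not_index_two (H := H) (by rw [X.card_G]; norm_num) (by rw [e, X.card_G])

variable (X) in
/-- three large primes generate -/
theorem top_of {H : Subgroup G} (h : 46139 ∣ Nat.card H) : H = ⊤ := by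
  have := sieve (f := fun n => bimp (dv 46139 n) (bimp (bigOK n) (bor (Nat.beq n 43387785523038781440)
    (Nat.beq n 86775571046077562880)))) (by decide +kernel) (X.dvd_G H)
  simp only [bimp_eq_true, bor_eq_true, beq_iff, dv_iff] at this
  exact eq_top_of_card_eq H (((this h (bigOK_H X H)).resolve_left (two X H)).trans X.card_G.symm)

end

theorem realizeEqns_J4xSv : True := by
  have := @CA.J4x.dv.eq_1
  have := @CA.J4x.dv.eq_def
  have := @CA.J4x.dv.congr_simp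
  have := @CA.J4x.cg.eq_1
  have := @CA.J4x.cg.eq_def
  have := @CA.J4x.cg.congr_simp
  have := @CA.J4x.ok11.eq_1
  have := @CA.J4x.ok11.eq_def
  have := @CA.J4x.ok11.congr_simp
  have := @CA.J4x.EP.eq_1
  have := @CA.J4x.EP.eq_def
  have := @CA.J4x.EP.congr_simp
  have := @CA.J4x.D240.eq_1
  have := @CA.J4x.D240.eq_def
  have := @CA.J4x.D240.congr_simp
  have := @CA.J4x.bigOK.eq_1
  have := @CA.J4x.bigOK.eq_def
  have := @CA.J4x.bigOK.congr_simp
  have := @CA.J4x.ee.eq_1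
  have := @CA.J4x.ee.eq_def
  have := @CA.J4x.ee.congr_simp
  trivial

end CA.J4x
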