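/-
Maximality of the 2-local subgroups of a group of Janko-four type.
-/
import Cfsg.Agent.J4x.Sv
import Cfsg.Agent.J4.Tri2

set_option autoImplicit false
set_option maxRecDepth 100000
set_option linter.unusedSectionVars false

namespace CA.J4x

open CA.M24 CA.Fi CA.FG CA.BG CA.J4 CA.J4o CA.J4.HM Cfsg Subgroup

noncomputable section

variable {G : Type*} [Group G] [Finite G]

theorem coatom_conjg {M : Subgroup G} (h : IsCoatom M) (g : G) : IsCoatom (M :^ g) :=
  (isCoatom_map_equiv (MulAut.conj g)).2 h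

theorem relIndex_inf_le {M N H : Subgroup G} (h : M ≤ H) : (M ⊓ N).relIndex M ≤ N.relIndex H := by
  rw [inf_relIndex_left]
  exact relIndex_le_of_le_right h (relIndex_pos N H).ne'

/-- an irreducible self-centralising subgroup that normalises its conjugates is normal -/
theorem norm_of_conj {p : ℕ} {A H : Subgroup G} (hA : IsPGrp p A) (h0 : A ≠ ⊥) (hc : 𝒞(A) = A) (l : 𝒩(A) ≤ H)
    (irr : ∀ W ≤ A, 𝒩(A) ≤ 𝒩(W) → W = ⊥ ∨ W = A) (h : ∀ g ∈ H, A ≤ 𝒩(A :^ g)) : H ≤ 𝒩(A) := by
  let K := ⨅ g : H, 𝒩(A :^ (g : G))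
  have n : H ≤ 𝒩(K) := fun x hx => mem_norm_of_forall fun y hy => mem_iInf.2 fun g => by
    have := mem_iInf.1 hy ⟨x⁻¹ * g, mul_mem (inv_mem hx) g.2⟩
    rw [← conjg_norm, mem_conjg] at this ⊢
    simpa [mul_assoc] using this
  have k : K ≤ 𝒩(A) := (iInf_le _ 1).trans (by simp)
  have a : A ≤ pCoreOf p K := pcore_max ⟨le_iInf fun g => h g g.2, k⟩ hA
  have n2 := norm_pcore {p} n
  have c := (irr _ inf_le_left (norm_inf le_rfl (norm_cent (l.trans n2)))).resolve_left
    (pGrp_inf_cent_ne_bot hA (pcore_pGrp p K) ((pcore_le _ _).trans k) h0)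
  have e : pCoreOf p K = A := le_antisymm (hc ▸ le_cent_symm (inf_eq_left.1 c)) a
  exact e ▸ n2

variable (X : HM G) [hF : Fact X.Fu] [IsSimpleGroup G]
include hF

theorem max_z : IsCoatom 𝒞[X.z] := by
  refine coatom_of (by rw [X.card_H, X.card_G]; norm_num) fun H l => ?_
  have := sieve (f := fun n => bimp (dv 21799895040 n) (bimp (bigOK n) (bimp (cg n 864 3)
    (bimp (bimp (dv 1331 n) (cg n 319440 1331)) (bor (Nat.beq n 21799895040) (Nat.beq n 86775571046077562880))))))
    (by decide +kernel) (X.dvd_G H)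
  simp only [bimp_eq_true, bor_eq_true, beq_iff, dv_iff] at this
  rw [X.card_H, X.card_G]
  refine this (X.card_H ▸ card_dvd_of_le l) (bigOK_H X H) (X.card_norm_R3 ▸ cg_le (by norm_num)
    (sylow_count Nat.prime_three (X.R3_syl.of_le (X.R3_le.trans l) le_top)) (X.norm_R3.trans l)) fun h => ?_
  obtain ⟨s, rs, os, ln⟩ := X.lnH11
  obtain ⟨w, u, U, k, a, b⟩ := exists_W1_le (X := X) h (zpowers_le.2 (l (mem_centralizer_singleton_iff.2 rs.zc.symm.eq)))
    (pGrp_of_card_eq p11 ((Nat.card_zpowers s).trans os))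
  have d := ln.ld.card ▸ card_dvd_of_le (inf_le_left : 𝒞(zpowers s) ⊓ 𝒞[X.z] ≤ _)
  rw [cent_zpowers] at d
  have e := k.zp (k.mem (a (mem_zpowers s)) fun e => by rw [e] at d; norm_num at d) fun e => by simp [e] at os
  refine cg_of (by norm_num) (k.cong b) (Nat.dvd_antisymm ((card_dvd_of_le inf_le_left).trans (dvd_of_eq k.k.cN))
    ((by norm_num : Nat.lcm 1331 2640 = 319440) ▸ Nat.lcm_dvd ?_ ?_))
  · exact k.k.card ▸ card_dvd_of_le (le_inf (k.k.oz.le.trans (cent_zpowers w ▸ cent_le_norm _)) b)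
  · exact ln.norm ▸ e ▸ card_dvd_of_le (inf_le_inf_left _ l)

theorem max_V : IsCoatom 𝒩(X.V) := by
  have c : Nat.card 𝒩(X.V) = 501397585920 := X.card_M
  refine coatom_of (by rw [c, X.card_G]; norm_num) fun H l => ?_
  have := sieve (f := fun n => bimp (dv 501397585920 n) (bimp (bigOK n) (bimp (dv 11 (ee n 23))
    (bor (Nat.beq n 501397585920) (Nat.beq n 86775571046077562880))))) (by decide +kernel) (X.dvd_G H)
  simp only [bimp_eq_true, bor_eq_true, beq_iff, dv_iff] at this
  have e := ee_dvd X (p := 23) (e := 22) (by decide) l (by rw [c]; norm_num)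
  rw [c] at e
  rw [c, X.card_G]
  exact this (c ▸ card_dvd_of_le l) (bigOK_H X H) e

theorem card_NL : Nat.card 𝒩(X.LL) = 660602880 := by
  obtain ⟨c, φ, a, b, -⟩ := X.exists_φ
  have := card_eq_card_quotient_mul_card_subgroup φ.ker
  rw [Nat.card_congr (QuotientGroup.quotientKerEquivOfSurjective φ a).toEquiv, card_F53, b,
    card_subgroupOf (X.norm_LL_eq ▸ le_normalizer), c] at this
  rw [X.norm_LL_eq, this]

theorem max_L : IsCoatom 𝒩(X.LL) := by
  refine coatom_of (by rw [card_NL, X.card_G]; norm_num) fun H l => ?_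
  have := sieve (f := fun n => bimp (dv 660602880 n) (bimp (bigOK n) (bimp (ok11 n) (bimp (cg n 26880 5) (bimp (cg n 2520 7)
    (bor (Nat.beq n 660602880) (Nat.beq n 86775571046077562880))))))) (by decide +kernel) (X.dvd_G H)
  simp only [bimp_eq_true, bor_eq_true, beq_iff, dv_iff] at this
  rw [card_NL, X.card_G]
  obtain ⟨P, a, -, b⟩ := X.syl_N (p := 5) (.inl rfl)
  obtain ⟨Q, c, -, d⟩ := X.syl_N (p := 7) (.inr rfl)
  have b := (b (card_N5 (X := X) a).le).trans (X.norm_LL_eq ▸ l)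
  have d := (d (card_N7 (X := X) c).le).trans (X.norm_LL_eq ▸ l)
  exact this (card_NL X ▸ card_dvd_of_le l) (bigOK_H X H) (ok11_H X H)
    (card_N5 (X := X) a ▸ cg_le (by norm_num) (sylow_count Nat.prime_five (sylow_of_sq Nat.prime_five a
      (le_normalizer.trans b) fun e => X.not_25 (e.trans (card_subgroup_dvd_card H)))) b)
    (card_N7 (X := X) c ▸ cg_le (by norm_num) (sylow_count (by norm_num) (sylow_of_sq (by norm_num) c
      (le_normalizer.trans d) fun e => X.not_49 (e.trans (card_subgroup_dvd_card H)))) d)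

theorem special_LL : IsSpecial 2 X.LL ∧ Nat.card X.LL = 2 ^ 15 ∧ Nat.card (center X.LL) = 8 := by
  obtain ⟨a, b⟩ := special_of' Nat.prime_two (pGrp_of_forall_pow Nat.prime_two fun _ => X.LL_four)
    (fun r h => (pow_two r).symm ▸ X.sq_LL h) X.der_LL fun _ => X.cen_LL
  exact ⟨a, X.exists_φ.1, by rw [b, card_subgroupOf X.ZZ_le_LL, X.card_ZZ]⟩

theorem max_A : IsCoatom 𝒩(X.A0) := by
  have c : Nat.card 𝒩(X.A0) = 10239344640 := X.exists_θ5.1
  have pA := abelem_pGrp Nat.prime_two X.A0_elem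
  refine coatom_of (by rw [c, X.card_G]; norm_num) fun H l => ?_
  have := sieve (f := fun n => bimp (dv 10239344640 n) (bimp (bigOK n) (bimp (dv 5 (ee n 31))
    (bimp (anyL (fun d => cg n d 7) [56, 168, 280, 504, 840, 2520, 252, 1260]) (bor (Nat.ble n 337898373120)
    (bor (Nat.beq n 43387785523038781440) (Nat.beq n 86775571046077562880))))))) (by decide +kernel) (X.dvd_G H)
  simp only [bimp_eq_true, bor_eq_true, beq_iff, dv_iff, Nat.ble_eq, anyL_eq_true] at this
  have e := ee_dvd X (p := 31) (e := 10) (by decide) l (by rw [c]; norm_num)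
  rw [c] at e
  have p7 : Nat.Prime 7 := by norm_num
  refine (this (c ▸ card_dvd_of_le l) (bigOK_H X H) e ?_).elim (fun h => ?_) fun h =>
    .inr ((h.resolve_left (two X H)).trans X.card_G.symm)
  swap
  · refine .inl (congrArg _ (congrArg _ (le_antisymm (norm_of_conj pA (fun e => by
      have := X.card_A0; simp [e] at this) X.cent_A0 l (fun _ => X.irr_A0) fun g hg => ?_) l)))
    set A := X.A0
    set D := 𝒩(A) ⊓ 𝒩(A :^ g)
    have i : D.relIndex 𝒩(A) ≤ 33 := (relIndex_inf_le l).trans (by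
      have := card_mul_relIndex (show 𝒩(A :^ g) ≤ H by
        rw [← conjg_norm]; exact (conjg_mono g l).trans (conjg_eq_self_iff.2 (le_normalizer hg)).le)
      rw [← conjg_norm, card_conjg, c, conjg_norm] at this
      omega)
    have n : D ≤ 𝒩(A) := inf_le_left
    have j : D.relIndex A ∣ D.relIndex 𝒩(A) := by
      rw [← relIndex_sup_right' (.inr n)]
      exact relIndex_dvd_relIndex_of_le le_sup_right (sup_le le_normalizer n)
    have k := card_inf_mul_relIndex D A
    have k2 := card_mul_relIndex n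
    rw [X.card_A0] at k
    suffices D.relIndex A = 1 from (relIndex_eq_one.1 this).trans inf_le_right
    obtain ⟨a, ha, f⟩ := (Nat.dvd_prime_pow Nat.prime_two (m := 10)).1 ⟨_, k.symm.trans (mul_comm ..)⟩
    have r := relIndex_pos D 𝒩(A)
    by_cases d : 31 ∣ Nat.card D
    · obtain ⟨y, hy, o⟩ := exists_mem_orderOf_eq (by norm_num) d
      have m := card_mod_cent (A := D ⊓ A) (by norm_num : Nat.Prime 31) (norm_inf le_normalizer n hy)
        (o ▸ pow_orderOf_eq_one y)
      have cy := (Nat.card_zpowers y).trans o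
      rw [← cent_zpowers, (card_NP (X := X) (e := 10) (by decide) cy).2.1, inf_eq_bot_of_cop (IsPGrp.coprime_of_not_dvd
        (IsPiGrp.inf_right pA _) (by rw [cy]; norm_num)), card_bot] at m
      have b := (Nat.le_of_dvd r j).trans i
      rw [f] at k b ⊢
      have : a ≤ 5 := by
        by_contra h
        have := Nat.pow_le_pow_right two_pos (not_le.1 h)
        omega
      have a5 : a = 0 ∨ a = 5 := by
        unfold Nat.ModEq at m
        interval_cases a <;> omega
      rcases a5 with rfl | rfl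
      · rfl
      have s : A ⊔ D = 𝒩(A) := by
        refine le_antisymm (sup_le le_normalizer n) (relIndex_eq_one.1 ?_)
        have := relIndex_mul_relIndex D (A ⊔ D) 𝒩(A) le_sup_right (sup_le le_normalizer n)
        have := relIndex_pos (A ⊔ D) 𝒩(A)
        rw [relIndex_sup_right' (.inr n), f] at *
        omega
      rcases X.irr_A0 (W := D ⊓ A) inf_le_right (s ▸ sup_le (norm_of_le_abelian X.A0_elem.1 inf_le_right)
        (norm_inf le_normalizer n)) with e | e
      · rw [e, card_bot] at k; omega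
      · rw [e, X.card_A0] at k; omega
    · have : 31 ∣ D.relIndex 𝒩(A) := ((Nat.Prime.dvd_mul (by norm_num)).1 (by rw [k2, c]; norm_num)).resolve_left d
      have : D.relIndex 𝒩(A) = 31 := by omega
      rw [this, f] at j
      exact f.trans ((Nat.Coprime.pow_left a (by norm_num : Nat.Coprime 2 31)).eq_one_of_dvd j)
  obtain ⟨y, hy, o⟩ := exists_mem_orderOf_eq p7 (show 7 ∣ Nat.card 𝒩(X.A0) by rw [c]; norm_num)
  have cy := (Nat.card_zpowers y).trans o
  have sy : ∀ {K}, y ∈ K → (𝒩(zpowers y)).relIndex K ≡ 1 [MOD 7] := fun h => sylow_count p7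
    (sylow_of_sq p7 cy (zpowers_le.2 h) fun e => X.not_49 (e.trans (card_subgroup_dvd_card _)))
  have m := card_mod_cent p7 hy (o ▸ pow_orderOf_eq_one y)
  have d1 : 2 ∣ Nat.card ↥(𝒩(zpowers y) ⊓ 𝒩(X.A0)) := (IsPGrp.dvd_card (IsPiGrp.inf_left pA 𝒞[y]) fun e => by
    rw [e, card_bot, X.card_A0] at m; exact absurd m (by decide)).trans (card_dvd_of_le
      (le_inf (inf_le_right.trans (cent_zpowers y ▸ cent_le_norm _)) (inf_le_left.trans le_normalizer)))
  have d2 := cg_of (by norm_num) (sy hy) rfl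
  have d3 := card_N7 (X := X) cy ▸ card_dvd_of_le (inf_le_left : 𝒩(zpowers y) ⊓ H ≤ _)
  have d4 := card_dvd_of_le (inf_le_inf_left 𝒩(zpowers y) l)
  have d5 : 7 ∣ Nat.card ↥(𝒩(zpowers y) ⊓ 𝒩(X.A0)) := cy ▸ card_dvd_of_le (le_inf le_normalizer (zpowers_le.2 hy))
  rw [c] at d2
  refine ⟨_, ?_, cg_of (by norm_num) (sy (l hy)) rfl⟩
  obtain ⟨a, ha⟩ := (by norm_num : Nat.Coprime 2 7).mul_dvd_of_dvd_of_dvd d1 d5
  obtain ⟨b, hb⟩ := d4
  rw [ha] at d2 hb
  rw [hb, mul_assoc] at d3 ⊢
  have d6 : a * b ∣ 180 := Nat.dvd_of_mul_dvd_mul_left (by norm_num : 0 < 14) d3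
  exact (by decide +kernel : ∀ a < 181, ∀ b < 181, cg 10239344640 (2 * 7 * a) 7 = true ∧ a * b ∣ 180 →
    2 * 7 * (a * b) ∈ [56, 168, 280, 504, 840, 2520, 252, 1260]) a
    (Nat.lt_succ_of_le (Nat.le_of_dvd (by norm_num) ((dvd_mul_right a b).trans d6))) b
    (Nat.lt_succ_of_le (Nat.le_of_dvd (by norm_num) ((dvd_mul_left b a).trans d6))) ⟨d2, d6⟩

end

end CA.J4x
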