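/-
Maximality of the normaliser of a Sylow 11-subgroup of a group of Janko-four type.
-/
import Cfsg.Agent.J4x.M1
import Cfsg.Agent.J4r.Gen

set_option autoImplicit false
set_option maxRecDepth 100000
set_option linter.unusedSectionVars false

namespace CA.J4x

open CA.M24 CA.Fi CA.FG CA.BG CA.J4 CA.J4o CA.J4.HM Cfsg Subgroup

noncomputable section

variable {G : Type*} [Group G] [Finite G] {X : HM G} [hF : Fact X.Fu] [IsSimpleGroup G]
include hF

theorem card84 {y : G} (o : orderOf y = 7) (h : y ∈ 𝒞[X.z]) : Nat.card ↥(𝒞[y] ⊓ 𝒞[X.z]) = 84 := by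
  obtain ⟨⟨z', ln⟩, -⟩ := ln7 (X := X) ((Nat.card_zpowers y).trans o)
  obtain ⟨n, a, b⟩ := ln.fuse X.z (cent_zpowers y ▸ mem_cent_singleton_comm.1 h) (IsConj.refl _)
  have := (ln.ld.conj n).card
  rwa [b, conjg_cent, conjg_eq_self_iff.2 a, cent_zpowers] at this

/-- a subgroup containing the extraspecial group and the Sylow normaliser with the critical index -/
theorem case13 {w : G} {U H : Subgroup G} (k : W1 X w X.z U) (l : 𝒩(zpowers w) ≤ H)
    (h : Nat.card H = 121 * Nat.card ↥(𝒞[X.z] ⊓ H)) : H ≤ 𝒩(zpowers w) := fun g hg => by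
  have n : 𝒞[w] ≤ 𝒩(zpowers w) := cent_zpowers w ▸ cent_le_norm _
  have ul := (k.k.oz.le.trans n).trans l
  have a := ncard_conj H X.z
  have b := ncard_conj U X.z
  have f : U ⊓ 𝒞[X.z] = zpowers w := le_antisymm (fun y hy => k.k.oz.fix y hy.1 (mem_cent_iff.1 hy.2).symm)
    (zpowers_le.2 ⟨k.k.oz.mem, mem_cent_iff.2 k.k.oz.uw.symm⟩)
  rw [f, k.czp, k.k.card] at b
  rw [h, inf_comm] at a
  have e : {y | ∃ c ∈ U, c * X.z * c⁻¹ = y} = {y | ∃ c ∈ H, c * X.z * c⁻¹ = y} :=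
    Set.eq_of_subset_of_ncard_le (fun y ⟨c, d, e⟩ => ⟨c, ul d, e⟩) (by
      rw [Nat.eq_of_mul_eq_mul_right Nat.card_pos a]; omega) (Set.toFinite _)
  have c : ∀ x ∈ H, Commute (g * w * g⁻¹) (x * X.z * x⁻¹) := fun x hx => by
    obtain ⟨u, hu, e⟩ := e.ge ⟨g⁻¹ * x, mul_mem (inv_mem hg) hx, rfl⟩
    have : Commute w (u * X.z * u⁻¹) :=
      ((mem_cent_iff.1 (k.k.oz.le hu)).symm.mul_right k.k.oz.uw.symm).mul_right (mem_cent_iff.1 (k.k.oz.le hu)).symm.inv_right
    have := this.conj g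
    rwa [e, show g * (g⁻¹ * x * X.z * (g⁻¹ * x)⁻¹) * g⁻¹ = x * X.z * x⁻¹ by group] at this
  obtain ⟨y, hy, ny⟩ : ∃ y ∈ U, y ∉ zpowers w := by
    by_contra! d
    have := card_le_of_le d
    rw [k.czp, k.k.card] at this
    omega
  have y2 : y * X.z * y⁻¹ * X.z ∈ U := by
    rw [show y * X.z * y⁻¹ * X.z = y * (X.z * y⁻¹ * X.z⁻¹) by rw [X.z_inv]; group]
    exact mul_mem hy (conj_mem_of_mem_norm (k.k.oz.cn k.k.oz.uw) (inv_mem hy))
  have y3 : y * X.z * y⁻¹ * X.z ∉ zpowers w := fun d => by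
    obtain ⟨v, hv, c, hc, i, rfl⟩ := k.k.oz.dec hy
    have cz : Commute c X.z := mem_cent_iff.1 (f.ge hc).2
    have : v * c * X.z * (v * c)⁻¹ * X.z = v * v := by
      calc v * c * X.z * (v * c)⁻¹ * X.z = v * (c * X.z * c⁻¹ * v⁻¹ * X.z) := by group
        _ = v * (X.z * v * X.z⁻¹)⁻¹ := by rw [cz.eq, X.z_inv, mul_inv_rev, mul_inv_rev, X.z_inv]; group
        _ = _ := by rw [i, inv_inv]
    rw [this] at d
    refine ny (mul_mem ((?_ : v ∈ zpowers (v * v)) |> zpowers_le.2 d) hc)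
    rw [← pow_two]
    exact mem_zpowers_pow_iff.2 ((Nat.coprime_primes Nat.prime_two p11).2 (by norm_num) |>.pow_right 3 |>.coprime_dvd_right
      (by rw [show 11 ^ 3 = 1331 by norm_num, ← k.k.card]; exact orderOf_dvd_card_of_mem hv))
  have k' := k.conj g
  have d := k.comm y2 y3 (mem_cent_iff.2 ((c y (ul hy)).mul_right (by simpa using c 1 H.one_mem))) k'.k.oz.ow
  have := k.zp (k.mem d (by rw [k'.k.cC]; norm_num)) k'.w1
  exact conjg_eq_self_iff.1 (by rw [conjg_zpowers, ← this])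

variable (X) in
theorem max_w : ∃ w U, X.W11 w X.z U ∧ IsCoatom 𝒩(zpowers w) := by
  obtain ⟨w, U, r, k⟩ := X.exists_W11
  refine ⟨w, U, k, coatom_of (by rw [k.cN, X.card_G]; norm_num) fun H l => ?_⟩
  have k1 := w1_of k
  have n : 𝒞[w] ≤ 𝒩(zpowers w) := cent_zpowers w ▸ cent_le_norm _
  have := sieve (f := fun n => bimp (dv 319440 n) (bimp (bigOK n) (bimp (cg n 319440 1331)
    (bor (memL n [219815608320, 97744673832960, 146507102945280]) (bor (Nat.beq n 319440)
    (Nat.beq n 86775571046077562880)))))) (by decide +kernel) (X.dvd_G H)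
  simp only [bimp_eq_true, bor_eq_true, beq_iff, dv_iff, memL_eq_true] at this
  rw [k.cN, X.card_G]
  refine (this (k.cN ▸ card_dvd_of_le l) (bigOK_H X H) (k.cN ▸ cg_le (by norm_num) (k1.cong ((k.oz.le.trans n).trans l))
    l)).elim (fun hn => ?_) id
  clear this
  obtain ⟨s, rs, os, ln⟩ := X.lnH11
  obtain rfl : w = s := by
    obtain ⟨j, e⟩ := rs.eq r
    rcases X.z_cases j with f | f
    · rw [e, f, mul_one]
    · have := k.oz.zp (mem_zpowers w)
      rw [e, f, rs.zc.symm.mul_pow, ← os, pow_orderOf_eq_one, one_mul, os, X.zmod (a := 11) (b := 1) rfl, pow_one] at this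
      exact absurd this X.z_ne
  set C := 𝒞[X.z] ⊓ H
  set D := X.EE ⊓ H
  have wz : w ∈ 𝒞[X.z] := mem_cent_iff.2 r.zc.symm
  have wH : w ∈ H := l (le_normalizer (mem_zpowers w))
  have c1 : Nat.card C ∣ 21799895040 := X.card_H ▸ card_dvd_of_le inf_le_left
  have cc : cg (Nat.card C) 2640 11 = true := cg_of (N := 𝒩(zpowers w)) (by norm_num) (sylow_count p11
    (sylow_of_sq p11 k1.czp (zpowers_le.2 ⟨wz, wH⟩) fun e => absurd (e.trans c1) (by norm_num)))
    (by rw [← inf_assoc, inf_eq_left.2 (inf_le_left.trans l)]; exact ln.norm)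
  have pE : IsPGrp 2 X.EE := pGrp_of_card_eq_pow Nat.prime_two (k := 13) X.card_EE
  have eC : X.EE ≤ 𝒞[X.z] := fun _ h => mem_cent_iff.2 (X.z_EE h).symm
  have nE : 𝒞[X.z] ≤ 𝒩(X.EE) := fun _ h => X.norm_EE (mem_cent_iff.1 h).symm
  have nD : C ≤ 𝒩(D) := norm_inf (inf_le_left.trans nE) (inf_le_right.trans le_normalizer)
  have c8 : Nat.card ↥(X.EE ⊓ 𝒞[w]) = 8 := by
    have m := card_mod_cent p11 (nE wz) (k.oz.zp (mem_zpowers w))
    obtain ⟨a, ha⟩ := (pGrp_iff_card Nat.prime_two).1 (IsPiGrp.inf_left pE 𝒞[w])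
    have d := ln.ld.card ▸ card_dvd_of_le (le_inf (cent_zpowers w ▸ inf_le_right) (inf_le_left.trans eC) :
      X.EE ⊓ 𝒞[w] ≤ 𝒞(zpowers w) ⊓ 𝒞[X.z])
    rw [ha] at m d ⊢
    rw [X.card_EE] at m
    have : a < 4 := by
      by_contra h
      exact absurd ((pow_dvd_pow 2 (not_lt.1 h)).trans d) (by norm_num)
    unfold Nat.ModEq at m
    interval_cases a <;> omega
  have dw : D ⊓ 𝒞[w] = X.EE ⊓ 𝒞[w] := by
    rw [inf_right_comm, inf_eq_left.2 (inf_le_right.trans (n.trans l))]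
  have m := card_mod_cent p11 (nD ⟨wz, wH⟩) (k.oz.zp (mem_zpowers w))
  obtain ⟨a, ha, e⟩ := (Nat.dvd_prime_pow Nat.prime_two (m := 13)).1 (X.card_EE ▸ card_dvd_of_le (inf_le_left : D ≤ _))
  rw [dw, c8, e] at m
  have : a = 3 ∨ a = 13 := by
    unfold Nat.ModEq at m
    interval_cases a <;> omega
  have ci := card_inf_mul_relIndex 𝒞[X.z] H
  rcases this with rfl | rfl
  · exfalso
    have d : D = X.EE ⊓ 𝒞[w] := (eq_of_le_of_card_ge (dw ▸ inf_le_left) (by rw [e, c8]; rfl)).symm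
    have c2 : Nat.card C ∣ 21288960 := by
      have a := card_inf_mul_relIndex X.EE C
      have b := card_mul_relIndex eC
      rw [X.card_EE, X.card_H] at b
      rw [← inf_assoc, inf_eq_left.2 eC, e] at a
      rw [← a, show 21288960 = 2 ^ 3 * 2661120 by norm_num]
      exact Nat.mul_dvd_mul_left _ ((relIndex_dvd_of_le_norm inf_le_left nE).trans (dvd_of_eq (by omega)))
    have c3 : ¬ 7 ∣ Nat.card C := fun h => by
      have p7 : Nat.Prime 7 := by norm_num
      obtain ⟨y, hy, o⟩ := exists_mem_orderOf_eq p7 h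
      have m := card_mod_cent p7 (nD hy) (o ▸ pow_orderOf_eq_one y)
      have a := card84 o hy.1 ▸ card_dvd_of_le (le_inf inf_le_right (inf_le_left.trans (inf_le_left.trans eC)) :
        D ⊓ 𝒞[y] ≤ 𝒞[y] ⊓ 𝒞[X.z])
      have b := one_lt_card (ne_bot_of_mem (H := D ⊓ 𝒞[y]) ⟨⟨X.z_mem, l (n (mem_cent_iff.2 r.zc))⟩,
        mem_cent_singleton_comm.1 hy.1⟩ X.z_ne)
      have c := Nat.le_of_dvd (by norm_num) (e ▸ card_dvd_of_le (inf_le_left : D ⊓ 𝒞[y] ≤ D))
      rw [e] at m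
      unfold Nat.ModEq at m
      rw [show Nat.card ↥(D ⊓ 𝒞[y]) = 8 by omega] at a
      omega
    have c4 : ¬ 27 ∣ Nat.card C := fun h => by
      have := h.trans (card_dvd_of_le inf_le_right)
      simp only [List.mem_cons, List.not_mem_nil, or_false] at hn
      omega
    have c5 := sieve (f := fun n => bimp (cg n 2640 11) (bimp (dv n 21288960) (bor (dv 7 n) (bor (dv 27 n)
      (bnot (dv 128 n)))))) (by decide +kernel) (X.dvd_G C)
    simp only [bimp_eq_true, bor_eq_true, bnot_eq_true, dv_iff] at c5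
    have c5 := ((c5 cc c2).resolve_left c3).resolve_left c4
    obtain ⟨S, sS, dS⟩ := sylow_superset Nat.prime_two (IsPiGrp.inf_left pE H) inf_le_right
    have pS := IsSylowOf.pGrp sS
    obtain ⟨g, -, t⟩ := sylow_subJ Nat.prime_two X.T_syl pS le_top
    obtain ⟨L, hL, cL⟩ := exists_le_card_eq_pow Nat.prime_two (k := 18) (H := H) (by
      simp only [List.mem_cons, List.not_mem_nil, or_false] at hn
      omega)
    have s1 := Nat.le_of_dvd Nat.card_pos (sS.card_dvd (pGrp_of_card_eq_pow Nat.prime_two cL) hL)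
    have v := X.isV.conjg g
    have e1 := card_inf_le t (X.V :^ g)
    rw [inf_eq_right.2 (conjg_mono g X.V_le_T), v.card, card_conjg, X.card_T] at e1
    set E := S ⊓ X.V :^ g
    have zS : X.z ∈ S := dS ⟨X.z_mem, l (n (mem_cent_iff.2 r.zc))⟩
    have cE : IsMulCommutative E := abelian_of_le v.elem.1 inf_le_right
    have e2 := card_le_sq X.z_sq (norm_inf le_normalizer (t.trans (conjg_norm X.V g ▸ conjg_mono g X.T_le_norm)) zS) cE
      fun _ h => v.sq h.2
    obtain ⟨b, hb⟩ := (pGrp_iff_card Nat.prime_two).1 (IsPiGrp.inf_left pS 𝒞[X.z])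
    have s2 : Nat.card ↥(S ⊓ 𝒞[X.z]) ≤ 64 := by
      rw [hb]
      refine Nat.pow_le_pow_right two_pos (n := 2) (i := b) (j := 6) (by_contra fun h => c5 ?_)
      exact (pow_dvd_pow 2 (not_le.1 h)).trans (hb ▸ card_dvd_of_le (le_inf inf_le_right (inf_le_left.trans sS.le)))
    by_cases zE : X.z ∈ E
    · have := card_le_of_le (le_inf inf_le_left fun y hy => mem_cent_iff.2 (v.comm hy.2 zE.2) : E ≤ S ⊓ 𝒞[X.z])
      omega
    · have := card_mul_le (U := S ⊓ 𝒞[X.z]) (A := E ⊓ 𝒞[X.z]) (B := D) (inf_le_inf_right _ inf_le_left)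
        (le_inf dS (inf_le_left.trans eC)) ((eq_bot_iff_forall _).2 fun y hy =>
          (uq_of (.inl ⟨ln.ld, rfl⟩) r.zc (v.sq hy.1.1.2) (mem_cent_iff.1 (d.le hy.2).2)
            (mem_cent_iff.1 hy.1.2).symm).resolve_right fun f => zE (f ▸ hy.1.1))
      rw [e] at this
      nlinarith
  · left
    have d : X.EE ≤ H := (eq_of_le_of_card_ge (inf_le_left : D ≤ _) (by rw [e, X.card_EE]; rfl)) ▸ inf_le_right
    obtain ⟨S, sS, eS⟩ := sylow_superset Nat.prime_two pE (le_inf eC d)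
    have sC := sS.le.trans inf_le_left
    have sH : IsSylowOf 2 S H := IsSylowOf.of_norm_le sS Nat.prime_two inf_le_right fun g hg => ⟨by
      refine mem_cent_iff.2 (mul_inv_eq_iff_eq_mul.1 ((X.cent_EE (mem_cent_iff.1
        (sC (conj_mem_of_mem_norm hg.2 (eS X.z_mem)))).symm fun y hy => ?_).resolve_left ?_))
      · have := ((mem_cent_iff.1 (sC (conj_mem_of_mem_norm' hg.2 (eS hy)))).symm).conj g
        rwa [show g * (g⁻¹ * y * g) * g⁻¹ = y by group] at this
      · simpa using X.z_ne, hg.1⟩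
    have o : ¬ 2 ∣ (𝒞[X.z]).relIndex H := fun h => IsSylowOf.not_dvd_index sH Nat.prime_two
      (h.trans (relIndex_dvd_of_le_left _ sC))
    have c5 := sieve (f := fun c => bimp (cg c 2640 11) (bimp (dv c 21799895040) (allL (fun n => bimp (dv c n)
      (bor (dv (Nat.mul c 2) n) (Nat.beq n (Nat.mul 121 c)))) [219815608320, 97744673832960, 146507102945280])))
      (by decide +kernel) (X.dvd_G C)
    simp only [bimp_eq_true, bor_eq_true, allL_eq_true, dv_iff, beq_iff] at c5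
    have c6 := (c5 cc c1 _ hn ⟨_, ci.symm⟩).resolve_left fun h => o (Nat.dvd_of_mul_dvd_mul_left Nat.card_pos (ci ▸ h))
    rw [← k.cN, le_antisymm (case13 k1 l c6) l]

variable (X) in
theorem max_U (S : Sylow 11 G) : IsCoatom 𝒩((S : Subgroup G)) := by
  obtain ⟨w, U, k, h⟩ := max_w X
  obtain ⟨g, -, e⟩ := sylow_trans p11 k.syl (sylow_top p11 S)
  have := eq_of_le_of_card_ge (k.conj g).oz.norm (by rw [← e, (X.s5575 S).2.2.2.1, (k.conj g).cN]; norm_num)
  rw [e, ← this, ← conjg_zpowers, ← conjg_norm]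
  exact coatom_conjg h g

end

end CA.J4x
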