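/-
Maximality of the normalisers of the large Sylow subgroups, from generation data.
-/
import Cfsg.Agent.J4x.M2

set_option autoImplicit false
set_option maxRecDepth 100000
set_option linter.unusedSectionVars false

namespace CA.J4x

open CA.M24 CA.Fi CA.FG CA.BG CA.J4 CA.J4o CA.J4.HM Cfsg Subgroup

noncomputable section

variable {G : Type*} [Group G] [Finite G]

variable (G) in
/-- generation data for the normaliser of a subgroup of order `p` -/
def GD (p e d r : ℕ) : Prop := ∃ x g : G, orderOf x = p ∧ orderOf g = e ∧ g ∈ 𝒩(zpowers x) ∧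
  ∀ H : Subgroup G, x ∈ H → g ∈ H → ∀ k ∈ H, k ∈ 𝒩(zpowers (g ^ d)) → k ∈ zpowers g ∨ r ∣ Nat.card H

theorem sylow_gcd {r k : ℕ} (hr : r.Prime) {R H : Subgroup G} (s : IsSylowOf r R H) (h : ¬ r ^ (k + 1) ∣ Nat.card H) :
    Nat.gcd (Nat.card H) (r ^ k) = Nat.card R := by
  obtain ⟨j, e⟩ := (pGrp_iff_card hr).1 (IsSylowOf.pGrp s)
  have d := card_dvd_of_le s.le
  refine Nat.dvd_antisymm ?_ (Nat.dvd_gcd d (e ▸ pow_dvd_pow r (by_contra fun f => h
    ((pow_dvd_pow r (not_le.1 f)).trans (e ▸ d)))))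
  obtain ⟨i, -, f⟩ := (Nat.dvd_prime_pow hr).1 (Nat.gcd_dvd_right (Nat.card H) (r ^ k))
  have := Nat.gcd_dvd_left (Nat.card H) (r ^ k)
  rw [f] at this ⊢
  exact Nat.Coprime.dvd_of_dvd_mul_right (((Nat.Prime.coprime_iff_not_dvd hr).2 (IsSylowOf.not_dvd_index s hr)).pow_left i)
    (card_mul_relIndex s.le ▸ this)

def fpf (n e q : ℕ) : Bool := allL (fun a => bor (dv a.1 e) (Nat.beq (Nat.mod (Nat.gcd n (Nat.pow a.1 a.2)) q) 1)) FAC

/-- the situation of Burnside's theorem -/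
structure BS (q e : ℕ) (s : G) (H : Subgroup G) : Prop where
  ord : orderOf s = q
  syl : IsSylowOf q (zpowers s) H
  cen : H ⊓ 𝒩(zpowers s) ≤ 𝒞(zpowers s)
  card : Nat.card ↥(𝒩(zpowers s) ⊓ H) = e

theorem BS.mk' {q e d : ℕ} (hq : q.Prime) (h1 : d * q = e) (h2 : ¬ q * q ∣ e) {g : G} {H : Subgroup G} (o : orderOf g = e)
    (hg : g ∈ H) (h : ∀ k ∈ H, k ∈ 𝒩(zpowers (g ^ d)) → k ∈ zpowers g) : BS q e (g ^ d) H := by
  have c : zpowers g ≤ 𝒞(zpowers (g ^ d)) := cent_zpowers (g ^ d) ▸ (zpowers_le.2 (cent_singleton_le_pow g d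
    (mem_cent_singleton_self g)))
  have f : H ⊓ 𝒩(zpowers (g ^ d)) = zpowers g := le_antisymm (fun k hk => h k hk.1 hk.2)
    (le_inf (zpowers_le.2 hg) (c.trans (cent_le_norm _)))
  have d0 : d ≠ 0 := by
    rintro rfl
    exact h2 (by simp [← h1])
  have o2 : orderOf (g ^ d) = q := by
    rw [orderOf_pow_of_dvd d0 ⟨q, o.trans h1.symm⟩, o, ← h1, Nat.mul_div_cancel_left _ (Nat.pos_of_ne_zero d0)]
  refine ⟨o2, sylow_of_sylow_norm hq (zpowers_le.2 (pow_mem hg d)) (sylow_of_sq hq ((Nat.card_zpowers _).trans o2)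
    (f ▸ zpowers_le.2 (pow_mem (mem_zpowers g) d)) (by rwa [f, Nat.card_zpowers, o])), f ▸ c, ?_⟩
  rw [inf_comm, f, Nat.card_zpowers, o]

theorem BS.fix {q e r : ℕ} {s : G} {H : Subgroup G} (h : BS q e s H) (hq : q.Prime) (hr : r.Prime) (d : ¬ r ∣ e) :
    ∃ R, IsSylowOf r R H ∧ s ∈ 𝒩(R) ∧ R ⊓ 𝒞[s] = ⊥ := by
  have a := h.card ▸ card_dvd_of_le (le_inf le_normalizer h.syl.le)
  rw [Nat.card_zpowers, h.ord] at a
  obtain ⟨R, b, c⟩ := bf hq hr (fun f => d (f ▸ a)) h.syl h.cen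
  refine ⟨R, b, c (mem_zpowers s), by_contra fun f => d ((IsPGrp.dvd_card (IsPiGrp.inf_left (IsSylowOf.pGrp b) _) f).trans
    (h.card ▸ card_dvd_of_le (le_inf (inf_le_right.trans (cent_zpowers s ▸ cent_le_norm _)) (inf_le_left.trans b.le))))⟩

variable {X : HM G} [hF : Fact X.Fu] [IsSimpleGroup G]
include hF

variable (X) in
theorem BS.conds {q e : ℕ} {s : G} {H : Subgroup G} (h : BS q e s H) (hq : q.Prime) :
    fpf (Nat.card H) e q = true ∧ cg (Nat.card H) e q = true := by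
  refine ⟨allL_eq_true.2 fun a ha => bor_eq_true.2 (or_iff_not_imp_left.2 fun d => beq_iff.2 ?_),
    cg_of hq.one_lt (sylow_count hq h.syl) h.card⟩
  have := (by simp only [FAC, List.forall_mem_cons, List.not_mem_nil, IsEmpty.forall_iff, implies_true]; norm_num :
    ∀ a ∈ FAC, a.1.Prime ∧ ¬ a.1 ^ (a.2 + 1) ∣ 86775571046077562880) a ha
  obtain ⟨R, b, c, e⟩ := h.fix hq this.1 (mt dv_iff.2 d)
  have m := card_mod_cent hq c (h.ord ▸ pow_orderOf_eq_one s)
  rw [e, card_bot, ← sylow_gcd this.1 b fun f => this.2 (f.trans (X.dvd_G H))] at m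
  exact Eq.trans m (Nat.mod_eq_of_lt hq.one_lt)

variable (X) in
theorem max_of {p e : ℕ} (hp : (p, e) ∈ EP) {x : G} (o : orderOf x = p)
    (h : ∀ H, 𝒩(zpowers x) ≤ H → bigOK (Nat.card H) = true → ok11 (Nat.card H) = true → cg (Nat.card H) (p * e) p = true →
      Nat.card H = p * e ∨ H = ⊤) (U : Sylow p G) : IsCoatom 𝒩((U : Subgroup G)) := by
  have c := (Nat.card_zpowers x).trans o
  obtain ⟨a, -, b, -⟩ := card_NP (X := X) hp c
  have pp := (BP_spec p a).1
  obtain ⟨g, -, e⟩ := sylow_trans pp (syl_big (X := X) a c le_top) (sylow_top pp U)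
  rw [e, ← conjg_norm]
  refine coatom_conjg (coatom_of (by rw [b, X.card_G]; exact (by decide : ∀ a ∈ EP, a.1 * a.2 ≠ 86775571046077562880) _ hp)
    fun H l => (h H l (bigOK_H X H) (ok11_H X H) (b ▸ cg_le pp.one_lt (sylow_count pp (syl_big (X := X) a c
      (le_normalizer.trans l))) l)).imp (fun f => f.trans b.symm) fun f => by rw [f, card_top]) g

variable (X) in
theorem max_7 {p e d : ℕ} (hp : (p, e) ∈ EP) (h1 : d * 7 = e) (h2 : ¬ 7 * 7 ∣ e) (h : GD G p e d 46139)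
    (hs : allD FAC (fun n => bimp (cg n (p * e) p) (bimp (cg n e 7) (bimp (fpf n e 7) (bimp (bigOK n) (bimp (ok11 n)
      (Nat.beq n (p * e))))))) 1 = true) (U : Sylow p G) : IsCoatom 𝒩((U : Subgroup G)) := by
  obtain ⟨x, g, ox, og, n, h⟩ := h
  refine max_of X hp ox (fun H l a b c => or_iff_not_imp_right.2 fun t => ?_) U
  have s := BS.mk' (by norm_num) h1 h2 og (l n) fun k hk f =>
    (h H (l (le_normalizer (mem_zpowers x))) (l n) k hk f).resolve_right fun e => t (top_of X e)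
  have := sieve hs (X.dvd_G H)
  simp only [bimp_eq_true, beq_iff] at this
  exact this c (s.conds X (by norm_num)).2 (s.conds X (by norm_num)).1 a b

variable (X) in
theorem max_43 (h : GD G 43 14 2 46139) (U : Sylow 43 G) : IsCoatom 𝒩((U : Subgroup G)) :=
  max_7 X (d := 2) (e := 14) (by decide) rfl (by norm_num) h (by decide +kernel) U

variable (X) in
theorem max_29 (h : GD G 29 28 4 46139) (U : Sylow 29 G) : IsCoatom 𝒩((U : Subgroup G)) :=
  max_7 X (d := 4) (e := 28) (by decide) rfl (by norm_num) h (by decide +kernel) U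

/-- a Sylow subgroup central in its normaliser would normalise a subgroup of order 37 -/
theorem no37 {q : ℕ} (hq : q.Prime) (d : ¬ q ∣ 444) {S H : Subgroup G} (c : Nat.card S = q) (s : IsSylowOf q S H)
    (h : H ⊓ 𝒩(S) ≤ 𝒞(S)) : ¬ 37 ∣ Nat.card H := fun e => by
  have p : Nat.Prime 37 := by norm_num
  obtain ⟨R, a, b⟩ := bf hq p (fun f => d (f ▸ by norm_num)) s h
  obtain ⟨P, l, f⟩ := exists_le_card_eq_prime p e
  have := card_dvd_of_le b
  rw [c, (card_NP (X := X) (e := 12) (by decide) ((a.card_eq (syl_big (X := X) (by decide) f l)).trans f)).2.2.1] at this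
  exact d this

theorem no121 {y : G} {R : Subgroup G} (o : orderOf y = 3) (n : y ∈ 𝒩(R)) (h : R ⊓ 𝒞[y] = ⊥) : Nat.card R ≠ 121 := fun c => by
  have pR : IsPGrp 11 R := pGrp_of_card_eq_pow p11 (k := 2) c
  obtain ⟨w, u, U, k, a, -⟩ := exists_W1_le (X := X) (H := ⊤) (by rw [card_top, X.card_G]; norm_num) le_top pR
  obtain ⟨v, hv, nv⟩ : ∃ v ∈ R, v ∉ zpowers w := by
    by_contra! d
    have := card_le_of_le d
    rw [k.czp, c] at this
    omega
  obtain ⟨j, e⟩ := (pGrp_iff_card p11).1 (IsPiGrp.inf_left (IsSylowOf.pGrp k.k.syl) 𝒞[v])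
  have d := k.c v (a hv) nv ▸ card_dvd_of_le (inf_le_right : U ⊓ 𝒞[v] ≤ _)
  have f : R = U ⊓ 𝒞[v] := eq_of_le_of_card_ge (le_inf a fun r hr => mem_cent_iff.2
    (abelian_iff_forall.1 (abelian_of_card_le_sq p11 pR c.le) r hr v hv)) (by
      rw [e] at d ⊢
      exact c ▸ Nat.pow_le_pow_right (by norm_num) (j := 2) (by_contra fun h =>
        absurd ((pow_dvd_pow 11 (not_le.1 h)).trans d) (by norm_num)))
  have wR : w ∈ R := f ▸ ⟨k.k.oz.mem, mem_cent_singleton_comm.1 (k.k.oz.le (a hv))⟩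
  have k' := k.conj y
  have z := k.zp (k.mem (a (conj_mem_of_mem_norm n wR)) (by rw [k'.k.cC]; norm_num)) k'.w1
  have m := card_mod_cent Nat.prime_three (conjg_eq_self_iff.1 (by rw [conjg_zpowers, ← z]) : y ∈ 𝒩(zpowers w))
    (o ▸ pow_orderOf_eq_one y)
  rw [le_bot_iff.1 ((inf_le_inf_right _ (zpowers_le.2 wR)).trans h.le), card_bot, k.czp] at m
  exact absurd m (by decide)

variable (X) in
theorem max_37 (h : GD G 37 12 4 43) (U : Sylow 37 G) : IsCoatom 𝒩((U : Subgroup G)) := by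
  obtain ⟨x, g, ox, og, n, h⟩ := h
  refine max_of X (e := 12) (by decide) ox (fun H l a b c => ?_) U
  have xH := l (le_normalizer (mem_zpowers x))
  have d37 : 37 ∣ Nat.card H := ox ▸ orderOf_dvd_card_of_mem xH
  by_cases d : 43 ∣ Nat.card H
  · have := sieve (f := fun n => bimp (dv 43 n) (bimp (cg n 444 37) (bimp (bigOK n) (bimp (ok11 n)
      (bor (Nat.beq (ee n 43) 1) (Nat.beq n 86775571046077562880)))))) (by decide +kernel) (X.dvd_G H)
    simp only [bimp_eq_true, bor_eq_true, beq_iff, dv_iff] at this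
    refine .inr (eq_top_of_card_eq H (((this d c a b).resolve_left fun e => ?_).trans X.card_G.symm))
    obtain ⟨P, i, f⟩ := exists_le_card_eq_prime (by norm_num) d
    have j := (card_NPH (X := X) (e := 14) (by decide) f i).1
    refine no37 (X := X) (by norm_num) (by norm_num) f (syl_big (X := X) (by decide) f i) ?_ d37
    rw [(card_NP (X := X) (e := 14) (by decide) f).2.1, inf_comm]
    exact (eq_of_le_of_card_ge (le_inf le_normalizer i) (by rw [j, e, f])).ge
  have s := BS.mk' (d := 4) Nat.prime_three rfl (by norm_num) og (l n) fun k hk f =>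
    (h H xH (l n) k hk f).resolve_right d
  have := sieve (f := fun n => bimp (cg n 444 37) (bimp (cg n 12 3) (bimp (fpf n 12 3) (bimp (bigOK n) (bimp (ok11 n)
    (bor (dv 9 n) (bor (dv 7 n) (bor (Nat.beq (Nat.gcd n 1331) 121) (Nat.beq n 444))))))))) (by decide +kernel) (X.dvd_G H)
  simp only [bimp_eq_true, bor_eq_true, beq_iff, dv_iff] at this
  have c3 := (Nat.card_zpowers _).trans s.ord
  rcases this c (s.conds X Nat.prime_three).2 (s.conds X Nat.prime_three).1 a b with e | e | e | e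
  · refine absurd (Nat.dvd_of_mul_dvd_mul_left three_pos ?_) (IsSylowOf.not_dvd_index s.syl Nat.prime_three)
    rwa [← card_mul_relIndex s.syl.le, c3] at e
  · have p7 : Nat.Prime 7 := by norm_num
    have y := Burnside_normal_complement Nat.prime_three s.syl s.cen
    have i := y.card_mul
    rw [c3] at i
    have f : ∀ r : ℕ, r.Coprime 3 → r ∣ Nat.card H → r ∣ Nat.card (pPrimeCoreOf 3 H) := fun r a b =>
      a.dvd_of_dvd_mul_right (i ▸ b)
    obtain ⟨S, j, k⟩ := exists_le_card_eq_prime p7 (f 7 (by norm_num) e)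
    refine absurd (f 37 (by norm_num) d37) (no37 (X := X) p7 (by norm_num) k
      (sylow_of_sq p7 k j fun e => X.not_49 (e.trans (card_subgroup_dvd_card _)))
      (le_of_coprime_relIndex inf_le_right (norm_cent le_rfl) ?_))
    have m := card_mul_relIndex (cent_le_norm S)
    rw [card_C7 (X := X) k, card_N7 (X := X) k] at m
    rw [show (𝒞(S)).relIndex 𝒩(S) = 3 by omega]
    exact (piNat_compl_singleton_iff_coprime Nat.prime_three).1 (IsPiGrp.inf_left (pcore_piGrp _ H) _)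
  · obtain ⟨R, i, j, k⟩ := s.fix Nat.prime_three p11 (by norm_num)
    exact absurd ((sylow_gcd p11 (k := 3) i fun f => absurd (f.trans (X.dvd_G H)) (by norm_num)).symm.trans e)
      (no121 (X := X) s.ord j k)
  · exact .inl e

variable (X) in
theorem card_N3 {y : G} (o : orderOf y = 3) : Nat.card 𝒩(zpowers y) ≤ 5322240 := by
  obtain ⟨g, rfl⟩ := isConj_iff.1 (X.conj_ρ o)
  rw [← conjg_zpowers, ← conjg_norm, card_conjg]
  have a := card_eq_card_quotient_mul_card_subgroup X.φ0.ker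
  rw [Nat.card_congr (QuotientGroup.quotientKerEquivOfSurjective _ X.φ0_surj).toEquiv, card_M22, X.ker_φ0, X.center_C0,
    card_subgroupOf X.Z6_le', X.card_Z6, show X.C0 = 𝒞(zpowers X.ρ) by
      rw [cent_zpowers]; exact inf_eq_right.2 X.cent_ρ] at a
  have b := card_mul_relIndex (cent_le_norm (zpowers X.ρ))
  have c := Nat.le_of_dvd (by norm_num) (relIndex_cent_dvd_pred Nat.prime_three ((Nat.card_zpowers _).trans X.ρ3) le_rfl)
  rw [← b, a]
  omega

variable (X) in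
theorem s5582 (h29 : GD G 29 28 4 46139) (h37 : GD G 37 12 4 43) (h43 : GD G 43 14 2 46139) : IsCoatom 𝒞[X.z] ∧
    (∀ V : Subgroup G, IsElementaryAbelian 2 V → Nat.card V = 2 ^ 11 → IsCoatom 𝒩(V)) ∧
    (∀ A : Subgroup G, IsElementaryAbelian 2 A → Nat.card A = 2 ^ 10 → 𝒞(A) = A → IsCoatom 𝒩(A)) ∧
    (∃ L : Subgroup G, IsSpecial 2 L ∧ Nat.card L = 2 ^ 15 ∧ Nat.card (center L) = 8 ∧ IsCoatom 𝒩(L)) ∧
    (∀ U : Sylow 11 G, IsCoatom 𝒩((U : Subgroup G))) ∧ (∀ U : Sylow 29 G, IsCoatom 𝒩((U : Subgroup G))) ∧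
    (∀ U : Sylow 37 G, IsCoatom 𝒩((U : Subgroup G))) ∧ ∀ U : Sylow 43 G, IsCoatom 𝒩((U : Subgroup G)) := by
  refine ⟨max_z X, fun V a b => ?_, fun A a b c => ?_, ⟨_, (special_LL X).1, (special_LL X).2.1, (special_LL X).2.2, max_L X⟩,
    max_U X, max_29 X h29, max_37 X h37, max_43 X h43⟩
  · obtain ⟨g, rfl⟩ := X.conj_V a b.ge
    exact conjg_norm X.V g ▸ coatom_conjg (max_V X) g
  · obtain ⟨g, rfl⟩ := X.conj10' a b c
    exact conjg_norm X.A0 g ▸ coatom_conjg (max_A X) g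

end

theorem realizeEqns_J4xM3 : True := by
  have := @CA.J4x.fpf.eq_1
  have := @CA.J4x.fpf.eq_def
  have := @CA.J4x.fpf.congr_simp
  have := @CA.J4x.GD.eq_1.{0}
  have := @CA.J4x.GD.eq_def.{0}
  have := @CA.J4x.GD.congr_simp.{0}
  trivial

end CA.J4x
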