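/-
Generation data for the normalisers of the large Sylow subgroups of the fourth Janko group.
-/
import Cfsg.Agent.J4x.M3
import Cfsg.Agent.J4x.W29a
import Cfsg.Agent.J4x.W37a
import Cfsg.Agent.J4x.W43a
import Cfsg.Agent.J4x.WLa

set_option autoImplicit false
set_option maxRecDepth 100000
set_option linter.unusedSectionVars false
set_option Elab.async false

namespace CA.J4x

open CA.M24 CA.Fi CA.FG CA.J4 CA.J4.HM Cfsg Subgroup

noncomputable section

theorem walk_app {st : ℕ → ℕ → ℕ} {ok : ℕ → ℕ → Bool} {a b : ℕ} {m : List (List ℕ × ℕ)} (h : walk st ok b m a = true) :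
    ∀ {l : List (List ℕ × ℕ)} {S : ℕ}, walk st ok a l S = true → walk st ok b (l ++ m) S = true
  | [], S, e => beq_iff.1 e ▸ h
  | c :: l, S, e => by
    have h' : (force (wd st c.1 S) fun S' => force c.2 fun h => band (ok S' h) (walk st ok a l S')) = true := e
    show (force (wd st c.1 S) fun S' => force c.2 fun h => band (ok S' h) (walk st ok b (l ++ m) S')) = true
    simp only [force_eq, band_eq_true] at h' ⊢
    exact ⟨h'.1, walk_app h h'.2⟩

theorem sub_snd {o : List (ℕ × ℕ)} {l : List ℕ} (h : allL (fun A => anyL (fun a => Nat.beq a.2 A) o) l = true) :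
    ∀ A ∈ l, A ∈ o.map Prod.snd := fun A hA =>
  let ⟨a, b, c⟩ := anyL_eq_true.1 (allL_eq_true.1 h A hA)
  List.mem_map.2 ⟨a, b, beq_iff.1 c⟩

variable {G : Type*} [Group G] [Finite G] {M : FR G}

theorem in_tab {x g : G} {A B : ℕ} {H : Subgroup G} {u q : List (ℕ × ℕ)} (h : slp (outs u) q [B, A] = true) (a : M.R x A)
    (b : M.R g B) (hx : x ∈ H) (hg : g ∈ H) : ∀ A ∈ u.map Prod.snd, M.In H A :=
  FR.slp_spec h (List.forall_mem_cons.2 ⟨⟨g, hg, b⟩, List.forall_mem_singleton.2 ⟨x, hx, a⟩⟩)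

theorem gd7 {p e d A B j v m fin a b : ℕ} {lp la lb ks : List ℕ} {o pr u q : List (ℕ × ℕ)} {l : List (List ℕ × ℕ)}
    (hb : ∀ A ∈ [MT, MY, MX], M.In ⊤ A) (hN : ∀ S : Subgroup G, Nat.card S = 7 → Nat.card 𝒩(S) = 2520) (hp : p.Prime)
    (ha : a.Prime) (hb' : b.Prime) (e1 : ex lp = p + 1 ∧ ex la = a + 1 ∧ ex lb = b + 1 ∧ d * 7 = e ∧ p * a * b = 46139 ∧
      (l.length + 1) * e = 2520 ∧ a.Coprime b ∧ p.Coprime (a * b) ∧ 0 < d)
    (he : ∀ n < e + 1, n ∣ e → n = e ∨ n ∣ e / 2 ∨ n ∣ d) (h1 : slp (outs o) pr [MT, MY, MX] = true)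
    (h2 : allL (fun A => anyL (fun a => Nat.beq a.2 A) o) (A :: B :: ks) = true) (h3 : baseChk lp A B j e d = true)
    (h4 : normChk (pwS B d) ks = true) (h5 : slp (outs u) q [B, A] = true) (h6 : mx B v = v)
    (h7 : ndM (Nat.mod (c0 v) m :: keys l) 0 = true)
    (h8 : walk (FR.stL ks) (okS (FR.fpV v) m (u.map Prod.snd) [la, lb]) fin l II = true) : GD G p e d 46139 := by
  obtain ⟨e1, e2, e3, rfl, e5, e6, e7, e8, e9⟩ := e1
  have i := fun A hA => FR.slp_spec h1 hb A (sub_snd h2 A hA)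
  obtain ⟨x, -, rx⟩ := i A List.mem_cons_self
  obtain ⟨g, -, rg⟩ := i B (List.mem_cons_of_mem _ List.mem_cons_self)
  obtain ⟨ox, og, n, -⟩ := FR.base hp e1 rx rg he (by omega) h3
  have k := FR.norm_in (rg.pwS d) h4 fun A hA => i A (List.mem_cons_of_mem _ (List.mem_cons_of_mem _ hA))
  have c := (FR.cosets rg (cent_le_norm _ (cent_zpowers (g ^ d) ▸ cent_singleton_le_pow g d (mem_cent_singleton_self g))) h6 h7
    (walk_spec (FR.stL_in k) h8 ⟨1, one_mem _, FR.one⟩).2).2 (by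
      rw [og, e6, hN _ (by rw [Nat.card_zpowers, orderOf_pow_of_dvd e9.ne' ⟨7, og⟩, og, Nat.mul_div_cancel_left _ e9])])
  refine ⟨x, g, ox, og, n, fun H hx hg y hy ny => (c H hg (in_tab h5 rx rg hx hg) y hy ny).imp_right fun f => ?_⟩
  rw [← e5, mul_assoc]
  exact e8.mul_dvd_of_dvd_of_dvd (ox ▸ orderOf_dvd_card_of_mem hx) (e7.mul_dvd_of_dvd_of_dvd
    (f la List.mem_cons_self a ha e2) (f lb (List.mem_cons_of_mem _ List.mem_cons_self) b hb' e3))

theorem gd43 (hb : ∀ A ∈ [MT, MY, MX], M.In ⊤ A) (hN : ∀ S : Subgroup G, Nat.card S = 7 → Nat.card 𝒩(S) = 2520) :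
    GD G 43 14 2 46139 :=
  gd7 (lp := b43) (a := 29) (b := 37) (A := x43) (B := g43) (j := j43) (o := o43) (pr := p43) (q := q43) hb hN (by norm_num)
    (by norm_num) (by norm_num) (by decide +kernel) (by decide) (by decide +kernel) (by decide +kernel) (by decide +kernel)
    (by decide +kernel) (by decide +kernel) (by decide +kernel) (by decide +kernel) 
    (walk_app (walk_app (walk_app (walk_app (walk_app (walk_app c43_6 c43_5) c43_4) c43_3) c43_2) c43_1) c43_0)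

theorem gd29 (hb : ∀ A ∈ [MT, MY, MX], M.In ⊤ A) (hN : ∀ S : Subgroup G, Nat.card S = 7 → Nat.card 𝒩(S) = 2520) :
    GD G 29 28 4 46139 :=
  gd7 (lp := b29) (a := 37) (b := 43) (A := x29) (B := g29) (j := j29) (o := o29) (pr := p29) (q := q29) hb hN (by norm_num)
    (by norm_num) (by norm_num) (by decide +kernel) (by decide) (by decide +kernel) (by decide +kernel) (by decide +kernel)
    (by decide +kernel) (by decide +kernel) (by decide +kernel) (by decide +kernel) 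
    (walk_app (walk_app (walk_app c29_3 c29_2) c29_1) c29_0)

theorem lL_inv (i : ℕ) : mx (getL lL II i) (getL lI II i) = II := by
  by_cases h : i < 4
  · exact beq_iff.1 (allR_eq_true.1 (by decide +kernel :
      allR (fun i => Nat.beq (mx (getL lL II i) (getL lI II i)) II) 4 = true) i h)
  · obtain ⟨k, rfl⟩ := Nat.exists_eq_add_of_le' (not_lt.1 h)
    exact (by decide +kernel : mx II II = II)

def wD : List (List ℕ × ℕ) := 
  w37_0 ++ (w37_1 ++ (w37_2 ++ (w37_3 ++ (w37_4 ++ (w37_5 ++ (w37_6 ++ (w37_7 ++ (w37_8))))))))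
def wL : List (List ℕ × ℕ) := 
  wL_0 ++ (wL_1 ++ (wL_2 ++ (wL_3 ++ (wL_4 ++ (wL_5 ++ (wL_6 ++ (wL_7 ++ (wL_8 ++ (wL_9 ++ (wL_10 ++ (wL_11 ++
  (wL_12 ++ (wL_13 ++ (wL_14 ++ (wL_15 ++ (wL_16 ++ (wL_17 ++ (wL_18 ++ (wL_19 ++ (wL_20 ++ (wL_21 ++ (wL_22 ++
  (wL_23 ++ (wL_24))))))))))))))))))))))))

theorem gd37 (hb : ∀ A ∈ [MT, MY, MX], M.In ⊤ A) (hN : ∀ y : G, orderOf y = 3 → Nat.card 𝒩(zpowers y) ≤ 5322240) :
    GD G 37 12 4 43 := by
  have i := fun A hA => FR.slp_spec (by decide +kernel : slp (outs o37) p37 [MT, MY, MX] = true) hb A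
    (sub_snd (l := x37 :: g37 :: (k37 ++ lL ++ lI)) (by decide +kernel) A hA)
  obtain ⟨x, -, rx⟩ := i x37 List.mem_cons_self
  obtain ⟨g, -, rg⟩ := i g37 (List.mem_cons_of_mem _ List.mem_cons_self)
  obtain ⟨ox, og, n, rt⟩ := FR.base (p := 37) (l := b37) (e := 12) (d := 4) (j := j37) (by norm_num) rfl rx rg (by decide)
    (by norm_num) (by decide +kernel)
  have k := FR.norm_in (l := k37 ++ lL) (rg.pwS 4) (by decide +kernel) fun A hA => i A
    (List.mem_cons_of_mem _ (List.mem_cons_of_mem _ (List.mem_append_left _ hA)))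
  have c : ∀ d, g ∈ 𝒞[g ^ d] := fun d => cent_singleton_le_pow g d (mem_cent_singleton_self g)
  have a := FR.cosets (l := wD) rg (K := 𝒩(zpowers (g ^ 4)) ⊓ 𝒞[g ^ (12 / 2)]) ⟨cent_le_norm _ (cent_zpowers (g ^ 4) ▸ c 4), c _⟩
    (by decide +kernel : mx g37 v37 = v37) (by decide +kernel) (walk_spec (FR.stL_in (FR.cen_in (l := k37) rt (by decide +kernel)
      fun A hA => k A (List.mem_append_left _ hA))) 
    (walk_app (walk_app (walk_app (walk_app (walk_app (walk_app (walk_app (walk_app c37_8 c37_7) c37_6) c37_5)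
    c37_4) c37_3) c37_2) c37_1) c37_0) ⟨1, one_mem _, FR.one⟩).2
  have b := FR.conjs (l := wL) (K := 𝒩(zpowers (g ^ 4))) rt (by decide +kernel) (walk_spec (FR.stC_cj
    (fun A hA => k A (List.mem_append_right _ hA)) (fun A hA => i A
    (List.mem_cons_of_mem _ (List.mem_cons_of_mem _ (List.mem_append_right _ hA)))) lL_inv) 
    (walk_app (walk_app (walk_app (walk_app (walk_app (walk_app (walk_app (walk_app (walk_app (walk_app (walk_app
    (walk_app (walk_app (walk_app (walk_app (walk_app (walk_app (walk_app (walk_app (walk_app (walk_app (walk_app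
    (walk_app (walk_app cL_24 cL_23) cL_22) cL_21) cL_20) cL_19) cL_18) cL_17) cL_16) cL_15) cL_14) cL_13) cL_12)
    cL_11) cL_10) cL_9) cL_8) cL_7) cL_6) cL_5) cL_4) cL_3) cL_2) cL_1) cL_0)
    ⟨1, one_mem _, by simpa using rt⟩).2
  have m := hN (g ^ 4) (by rw [orderOf_pow_of_dvd (by norm_num) ⟨3, og⟩, og])
  rw [og, show wD.length = 383 by decide +kernel] at a
  rw [show wL.length = 1154 by decide +kernel] at b
  refine ⟨x, g, ox, og, n, fun H hx hg y hy ny => ?_⟩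
  have t := in_tab (by decide +kernel : slp (outs u37) q37 [g37, x37] = true) rx rg hx hg
  rcases b.2 (by omega) H (pow_mem hg _) t y hy ny with f | f
  · exact (a.2 (by omega) H hg t y hy ⟨ny, f⟩).imp_right fun f => f b43 List.mem_cons_self 43 (by norm_num) rfl
  · exact .inr (f b43 List.mem_cons_self 43 (by norm_num) rfl)

/-- maximal subgroups of a group of Janko-four type isomorphic to the fourth Janko group -/
theorem s5582_of [IsSimpleGroup G] (X : HM G) [Fact X.Fu] (e : Spor.IsoJ4 G) : IsCoatom 𝒞[X.z] ∧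
    (∀ V : Subgroup G, IsElementaryAbelian 2 V → Nat.card V = 2 ^ 11 → IsCoatom 𝒩(V)) ∧
    (∀ A : Subgroup G, IsElementaryAbelian 2 A → Nat.card A = 2 ^ 10 → 𝒞(A) = A → IsCoatom 𝒩(A)) ∧
    (∃ L : Subgroup G, IsSpecial 2 L ∧ Nat.card L = 2 ^ 15 ∧ Nat.card (center L) = 8 ∧ IsCoatom 𝒩(L)) ∧
    (∀ U : Sylow 11 G, IsCoatom 𝒩((U : Subgroup G))) ∧ (∀ U : Sylow 29 G, IsCoatom 𝒩((U : Subgroup G))) ∧
    (∀ U : Sylow 37 G, IsCoatom 𝒩((U : Subgroup G))) ∧ ∀ U : Sylow 43 G, IsCoatom 𝒩((U : Subgroup G)) := by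
  obtain ⟨e⟩ := e
  obtain ⟨M, h⟩ := exists_FR e
  exact s5582 X (gd29 h fun _ => card_N7 (X := X)) (gd37 h fun _ => card_N3 X) (gd43 h fun _ => card_N7 (X := X))

end

theorem realizeEqns_J4xGD : True := by
  have := @CA.J4x.wL.eq_1
  have := @CA.J4x.wL.eq_def
  have := @CA.J4x.wL.congr_simp
  have := @CA.J4x.wD.eq_1
  have := @CA.J4x.wD.eq_def
  have := @CA.J4x.wD.congr_simp
  trivial

end CA.J4x
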